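import Cfsg.Agent.SporB.FiTwoThree.Realize

/-! A word of 48 letters (a translation in the affine Weyl group of type E6) is trivial in Fi23. -/

set_option autoImplicit false
set_option maxRecDepth 100000
set_option Elab.async false

namespace Cfsg.Agent.SporMult.FiThree

open Cfsg.Agent.CosetCert Cfsg.Agent.CosetEnum Cfsg.Agent.SporB.FischerTri

/-- The short word. -/
def relShort : List ℕ := (List.replicate 4 [9, 3, 4, 5, 2, 3, 4, 9, 10, 6, 5, 4]).flatten

/-- One point is fixed. -/
noncomputable def shortOK (i : ℕ) : Bool :=
  Nat.ble 31671 i || Nat.beq (Cfsg.Agent.CosetCert.FiTwentyThree.data.run relShort i) i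

theorem short_b0 : allB shortOK 12 0 = true := by decide +kernel
theorem short_b1 : allB shortOK 12 4096 = true := by decide +kernel
theorem short_b2 : allB shortOK 12 8192 = true := by decide +kernel
theorem short_b3 : allB shortOK 12 12288 = true := by decide +kernel
theorem short_b4 : allB shortOK 12 16384 = true := by decide +kernel
theorem short_b5 : allB shortOK 12 20480 = true := by decide +kernel
theorem short_b6 : allB shortOK 12 24576 = true := by decide +kernel
theorem short_b7 : allB shortOK 12 28672 = true := by decide +kernel

theorem val_relShort : val relShort = 1 := by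
  obtain ⟨φ, hinj, hval, -, -, -⟩ := tri_data
  refine hinj (Equiv.ext fun x => Fin.ext ?_)
  rw [hval _ (by decide +kernel), map_one, Equiv.Perm.one_apply]
  have h : shortOK x = true := by
    have hx := x.2
    rcases Nat.lt_or_ge (x : ℕ) 4096 with h | h
    · exact allB_spec short_b0 _ (Nat.zero_le _) (by omega)
    rcases Nat.lt_or_ge (x : ℕ) 8192 with h | h
    · exact allB_spec short_b1 _ (by omega) (by omega)
    rcases Nat.lt_or_ge (x : ℕ) 12288 with h | h
    · exact allB_spec short_b2 _ (by omega) (by omega)
    rcases Nat.lt_or_ge (x : ℕ) 16384 with h | h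
    · exact allB_spec short_b3 _ (by omega) (by omega)
    rcases Nat.lt_or_ge (x : ℕ) 20480 with h | h
    · exact allB_spec short_b4 _ (by omega) (by omega)
    rcases Nat.lt_or_ge (x : ℕ) 24576 with h | h
    · exact allB_spec short_b5 _ (by omega) (by omega)
    rcases Nat.lt_or_ge (x : ℕ) 28672 with h | h
    · exact allB_spec short_b6 _ (by omega) (by omega)
    · exact allB_spec short_b7 _ (by omega) (by omega)
  rw [shortOK, Bool.or_eq_true] at h
  rcases h with h | h
  · exact absurd (Nat.le_of_ble_eq_true h) (not_le.2 x.2)
  · exact Nat.eq_of_beq_eq_true h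

end Cfsg.Agent.SporMult.FiThree
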