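import Cfsg.Agent.SporMult.FiThree.Univ
import Cfsg.Agent.SporMult.FiThree.ShortWord
import Cfsg.Agent.SporMult.FiThree.SpiderCube
import Cfsg.Agent.SporMult.FiThree.SpiderShort
import Cfsg.Agent.SporMult.FiThree.SpiderSquare

/-! The first long relator is trivial in the Coxeter group of Fi23 with central long relators: its cube by
the affine diagram of type E6, and the equivalent short word squares to one by the diagram with nine
nodes. -/

set_option autoImplicit false
set_option maxRecDepth 100000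

namespace Cfsg.Agent.SporMult.FiThree

open Cfsg.Agent.CosetCert Cfsg.Agent.CosetEnum Cfsg.Agent.SporB.FischerTri

local notation "fiD" => Cfsg.Agent.CosetCert.FiTwentyThree.data

theorem bLet_zero : bLet 0 = 1 := map_one _

/-- A closed walk of deductions puts the word in the subgroup. -/
theorem walk_mem (B : BoundData) (hB : B.Valid) (hinv : B.invl = [0, 1, 2, 3, 4, 5, 6, 7, 8, 9, 10])
    (hrel : ∀ u ∈ B.words, pval bLet u = 1) (K : Subgroup BarGroup)
    (hsub : ∀ u ∈ B.subs, pval bLet u ∈ K) (n off pk : ℕ) (path : List ℕ) (hn : n ≤ 65536)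
    (hwalk : B.cert.walk B.nf 0 n off 0 pk = true) (hpath : unpack 65536 pk = path) :
    pval bLet path ∈ K := by
  have gbig : ∀ l, ¬ l < 11 → bLet l = 1 := by
    intro l hl
    have : (fiD).act FreeGroup.of l = 1 := by
      obtain ⟨m, rfl⟩ : ∃ m, l = m + 1 := ⟨l - 1, by omega⟩
      have e : (fiD).cols[m]? = none := List.getElem?_eq_none (by
        rw [show (fiD).cols.length = 10 from rfl]; omega)
      simp only [PresData.act, e]
    rw [bLet, this, map_one]
  have gsq : ∀ l, bLet l * bLet l = 1 := by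
    intro l
    by_cases hl : l < 11
    · rcases Nat.eq_zero_or_pos l with rfl | hpos
      · rw [bLet_zero, one_mul]
      · exact bLet_sq (by interval_cases l <;> decide)
    · rw [gbig l hl, one_mul]
  have hginv : ∀ l, bLet (B.inv l) = (bLet l)⁻¹ := ginv bLet bLet_zero gbig gsq hinv
  obtain ⟨v, hv0, hv⟩ := cert_sound (act := bLet) B.cert bLet_zero hginv
    ((1 : BarGroup) : BarGroup ⧸ K) B.nf (BoundData.cert_rule hB bLet bLet_zero hginv hrel)
    (fun i hi => by
      have hi' : i < B.subs.length := hi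
      rw [hB.subs_unpack i (List.mem_range.2 hi')]
      rw [MulAction.Quotient.smul_coe, smul_eq_mul, mul_one, QuotientGroup.eq, mul_one, inv_mem_iff]
      exact hsub _ (by rw [List.getD_eq_getElem _ _ hi']; exact List.getElem_mem hi'))
    hB.facts
  have h := walk_sound (act := bLet) B.cert bLet_zero hginv v B.nf 0 (fun f hf => hv f hf) n off 0 pk
    65536 hn hwalk
  rw [hpath, hv0, MulAction.Quotient.smul_coe, smul_eq_mul, mul_one, QuotientGroup.eq, mul_one,
    inv_mem_iff] at h
  exact h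

/-- Centrality as a word relation. -/
theorem comm_word {w : List ℕ} (hc : pval bLet w ∈ Subgroup.center BarGroup)
    (hw : ∀ l ∈ w, l ∈ [1, 2, 3, 4, 5, 6, 7, 8, 9, 10]) {l : ℕ}
    (hl : l ∈ [1, 2, 3, 4, 5, 6, 7, 8, 9, 10]) : pval bLet (w ++ [l] ++ w.reverse ++ [l]) = 1 := by
  simp only [pval_append, pval, one_mul]
  rw [pval_reverse bLet w fun m hm => bLet_sq (hw m hm), Subgroup.mem_center_iff.1 hc (bLet l),
    inv_mul_cancel_left, bLet_sq hl]

/-- The map of the group of type E8. -/
noncomputable def etaEight : WEight →* BarGroup :=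
  letHom (fun l => if l ∈ [0, 1, 10] ∨ ¬ l < 11 then 1 else bLet l)
    (fun l hl => if_pos (Or.inr hl)) (fun l hl => if_pos (Or.inl hl))
    (by
      intro u hu
      rw [pval_congr _ bLet u fun l hl => if_neg ((by decide +kernel :
        ∀ u ∈ weylEight.words, ∀ l ∈ u, ¬(l ∈ [0, 1, 10] ∨ ¬ l < 11)) u hu l hl)]
      exact bar_word ((by decide +kernel : ∀ u ∈ weylEight.words,
        pval ((fiD).act FreeGroup.of) u ∈ coxList Cfsg.Spor.Fi23.edges []) u hu))

theorem etaEight_gLet {l : ℕ} (hl : l ∈ [2, 3, 4, 5, 6, 7, 8, 9]) : etaEight (gEight l) = bLet l :=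
  (letHom_gLet _ _ _ _ l).trans (if_neg ((by decide :
    ∀ l ∈ [2, 3, 4, 5, 6, 7, 8, 9], ¬(l ∈ [0, 1, 10] ∨ ¬ l < 11)) l hl))

/-- The map of the group of type E7. -/
noncomputable def etaSeven : WSeven →* BarGroup :=
  letHom (fun l => if l ∈ [0, 1, 8, 10] ∨ ¬ l < 11 then 1 else bLet l)
    (fun l hl => if_pos (Or.inr hl)) (fun l hl => if_pos (Or.inl hl))
    (by
      intro u hu
      rw [pval_congr _ bLet u fun l hl => if_neg ((by decide +kernel :
        ∀ u ∈ CosetEnum.FiTwentyThree.stepB.words, ∀ l ∈ u, ¬(l ∈ [0, 1, 8, 10] ∨ ¬ l < 11)) u hu l hl)]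
      exact bar_word ((by decide +kernel : ∀ u ∈ CosetEnum.FiTwentyThree.stepB.words,
        pval ((fiD).act FreeGroup.of) u ∈ coxList Cfsg.Spor.Fi23.edges []) u hu))

theorem etaSeven_gLet {l : ℕ} (hl : l ∈ [2, 3, 4, 5, 6, 7, 9]) : etaSeven (gSeven l) = bLet l :=
  (letHom_gLet _ _ _ _ l).trans (if_neg ((by decide :
    ∀ l ∈ [2, 3, 4, 5, 6, 7, 9], ¬(l ∈ [0, 1, 8, 10] ∨ ¬ l < 11)) l hl))

/-- Words that die in Fi23 and close in the subgroup of type E6 are trivial. -/
theorem six_trivial {K : Subgroup BarGroup}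
    (hK : K = Subgroup.closure (bLet '' {l | l ∈ [2, 3, 4, 5, 6, 9]})) {x : BarGroup} (hx : x ∈ K)
    (hG : barToFi x = 1) : x = 1 := by
  have hle : K ≤ etaSeven.range := by
    rw [hK, Subgroup.closure_le]
    rintro _ ⟨l, hl, rfl⟩
    exact ⟨gSeven l, etaSeven_gLet ((by decide : ∀ l ∈ [2, 3, 4, 5, 6, 9],
      l ∈ [2, 3, 4, 5, 6, 7, 9]) l hl)⟩
  obtain ⟨k, rfl⟩ := hle hx
  have e : barToFi.comp etaSeven = psiSeven := by
    refine PresentedGroup.ext fun i => ?_
    have hi : (PresentedGroup.of i : WSeven) = gSeven i := by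
      rw [gSeven, gLet, actF, dif_pos i.2]; rfl
    rw [MonoidHom.comp_apply, hi]
    rcases (by decide : ∀ i : Fin 11, (i : ℕ) ∈ [0, 1, 8, 10] ∨ (i : ℕ) ∈ [2, 3, 4, 5, 6, 7, 9]) i with
      h | h
    · rw [show gSeven i = 1 from gLet_kill h, map_one, map_one, map_one]
    · rw [etaSeven_gLet h, barToFi_bLet, psiSeven_gLet ((by decide :
        ∀ l ∈ [2, 3, 4, 5, 6, 7, 9], l ∉ [0, 1, 8, 10]) _ h)]
  have hk : psiSeven k = 1 := by rw [← e, MonoidHom.comp_apply, hG]
  rw [psiSeven_injective (hk.trans (map_one _).symm), map_one]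

/-- Words that die in Fi23 and close in the subgroup of type E8 square to one. -/
theorem eight_sq {K : Subgroup BarGroup}
    (hK : K = Subgroup.closure (bLet '' {l | l ∈ [2, 3, 4, 5, 6, 7, 8, 9]})) {x : BarGroup} (hx : x ∈ K)
    (hG : barToFi x = 1) : x * x = 1 := by
  have hle : K ≤ etaEight.range := by
    rw [hK, Subgroup.closure_le]
    rintro _ ⟨l, hl, rfl⟩
    exact ⟨gEight l, etaEight_gLet hl⟩
  obtain ⟨k, rfl⟩ := hle hx
  have e : barToFi.comp etaEight = psiEight := by
    refine PresentedGroup.ext fun i => ?_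
    have hi : (PresentedGroup.of i : WEight) = gEight i := by
      rw [gEight, gLet, actF, dif_pos i.2]; rfl
    rw [MonoidHom.comp_apply, hi]
    rcases (by decide : ∀ i : Fin 11, (i : ℕ) ∈ [0, 1, 10] ∨ (i : ℕ) ∈ [2, 3, 4, 5, 6, 7, 8, 9]) i with
      h | h
    · rw [show gEight i = 1 from gLet_kill h, map_one, map_one, map_one]
    · rw [etaEight_gLet h, barToFi_bLet, psiEight_gLet ((by decide :
        ∀ l ∈ [2, 3, 4, 5, 6, 7, 8, 9], l ∉ [0, 1, 10]) _ h)]
  have hk : psiEight k = 1 := by rw [← e, MonoidHom.comp_apply, hG]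
  rw [← map_mul, psiEight_sq hk, map_one]

theorem barToFi_pval (w : List ℕ) : barToFi (pval bLet w) = val w := by
  rw [map_pval, val_eq_pval]
  exact pval_congr _ _ _ fun l _ => barToFi_bLet l

theorem pval_mem (L : List ℕ) :
    ∀ w : List ℕ, (∀ l ∈ w, l ∈ L) → pval bLet w ∈ Subgroup.closure (bLet '' {l | l ∈ L}) := by
  intro w
  induction w with
  | nil => intro _; exact one_mem _
  | cons l ls ih =>
    intro h
    exact mul_mem (ih fun m hm => h m (List.mem_cons_of_mem _ hm))
      (Subgroup.subset_closure ⟨l, h l List.mem_cons_self, rfl⟩)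

/-- **The first long relator is trivial.** -/
theorem relator_facts : RelatorFacts := by
  unfold RelatorFacts
  set R := pval bLet relOne with hR
  have hRc : R ∈ Subgroup.center BarGroup := bar_central List.mem_cons_self
  have hR1 : val relOne = 1 := by
    rw [val, (by decide +kernel : pval ((fiD).act FreeGroup.of) relOne =
      Cfsg.Spor.Fi23.extra.getD 0 1)]
    exact CosetEnum.FiTwentyThree.mk_eq_one _ (by decide +kernel)
  have hlet : ∀ l ∈ relOne, l ∈ [1, 2, 3, 4, 5, 6, 7, 8, 9, 10] := by decide +kernel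
  -- relations on seven nodes
  have hwords : ∀ u ∈ spiderCube.words, pval bLet u = 1 := by
    intro u hu
    have h : ∀ u ∈ spiderCube.words,
        pval ((fiD).act FreeGroup.of) u ∈ coxList Cfsg.Spor.Fi23.edges [] ∨
        ∃ l ∈ [1, 2, 3, 4, 5, 6, 7, 8, 9, 10], u = relOne ++ [l] ++ relOne.reverse ++ [l] := by
      decide +kernel
    rcases h u hu with h | ⟨l, hl, rfl⟩
    · exact bar_word h
    · exact comm_word hRc hlet hl
  have hwords' : ∀ u ∈ spiderShort.words, pval bLet u = 1 := fun u hu =>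
    hwords u ((by decide +kernel : ∀ u ∈ spiderShort.words, u ∈ spiderCube.words) u hu)
  have hsix : ∀ u : List ℕ, (∀ l ∈ u, l ∈ [2, 3, 4, 5, 6, 9]) →
      pval bLet u ∈ Subgroup.closure (bLet '' {l | l ∈ [2, 3, 4, 5, 6, 9]}) := pval_mem _
  have h3 : R ^ 3 = 1 := by
    have hmem := walk_mem spiderCube spiderCube_valid rfl hwords _
      (fun u hu => hsix u ((by decide +kernel : ∀ u ∈ spiderCube.subs, ∀ l ∈ u,
        l ∈ [2, 3, 4, 5, 6, 9]) u hu)) _ _ _ _ (by norm_num) spiderCube_walk spiderCube_unpack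
    rw [show spiderCubePath = relOne ++ relOne ++ relOne by decide +kernel] at hmem
    have h := six_trivial rfl hmem (by
      rw [barToFi_pval, val_eq_pval, pval_append, pval_append, ← val_eq_pval, hR1, one_mul, one_mul])
    rw [pval_append, pval_append, ← hR] at h
    rwa [pow_succ, pow_two, mul_assoc]
  have hshort : pval bLet relShort = R⁻¹ := by
    have hmem := walk_mem spiderShort spiderShort_valid rfl hwords' _
      (fun u hu => hsix u ((by decide +kernel : ∀ u ∈ spiderShort.subs, ∀ l ∈ u,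
        l ∈ [2, 3, 4, 5, 6, 9]) u hu)) _ _ _ _ (by norm_num) spiderShort_walk spiderShort_unpack
    rw [show spiderShortPath = relShort ++ relOne by decide +kernel] at hmem
    have h := six_trivial rfl hmem (by
      rw [barToFi_pval, val_eq_pval, pval_append, ← val_eq_pval, ← val_eq_pval, hR1, val_relShort,
        one_mul])
    rw [pval_append, ← hR] at h
    exact eq_inv_of_mul_eq_one_right h
  have hSc : pval bLet relShort ∈ Subgroup.center BarGroup := hshort ▸ inv_mem hRc
  have hlet' : ∀ l ∈ relShort, l ∈ [1, 2, 3, 4, 5, 6, 7, 8, 9, 10] := by decide +kernel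
  have hwords2 : ∀ u ∈ spiderSquare.words, pval bLet u = 1 := by
    intro u hu
    have h : ∀ u ∈ spiderSquare.words,
        pval ((fiD).act FreeGroup.of) u ∈ coxList Cfsg.Spor.Fi23.edges [] ∨
        ∃ l ∈ [1, 2, 3, 4, 5, 6, 7, 8, 9, 10], u = relShort ++ [l] ++ relShort.reverse ++ [l] := by
      decide +kernel
    rcases h u hu with h | ⟨l, hl, rfl⟩
    · exact bar_word h
    · exact comm_word hSc hlet' hl
  have hmem := walk_mem spiderSquare spiderSquare_valid rfl hwords2 _
    (fun u hu => pval_mem [2, 3, 4, 5, 6, 7, 8, 9] u ((by decide +kernel : ∀ u ∈ spiderSquare.subs, ∀ l ∈ u,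
      l ∈ [2, 3, 4, 5, 6, 7, 8, 9]) u hu)) _ _ _ _ (by norm_num) spiderSquare_walk spiderSquare_unpack
  rw [show spiderSquarePath = relShort by decide +kernel] at hmem
  have h2 := eight_sq rfl hmem (by rw [barToFi_pval, val_relShort])
  rw [hshort, ← mul_inv_rev, inv_eq_one] at h2
  calc R = R ^ 3 * (R * R)⁻¹ := by group
    _ = 1 := by rw [h3, h2, inv_one, mul_one]

end Cfsg.Agent.SporMult.FiThree
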