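import Cfsg.Agent.SporMult.FiThree.Lifts
import Cfsg.Agent.SporMult.FiThree.RelatorFacts

/-! The Schur multiplier of Fi23 is trivial. -/

set_option autoImplicit false
set_option maxRecDepth 100000

namespace Cfsg.Agent.SporMult.FiThree

open Cfsg.Agent.CosetCert Cfsg.Agent.CosetEnum Cfsg.Agent.SporB.FischerTri

local notation "fiD" => Cfsg.Agent.CosetCert.FiTwentyThree.data
local notation "XGen" => Cfsg.Spor.Fi23.Gen

theorem stem_trivial {Γ : Type} [Group Γ] {σ : Γ →* Cfsg.Spor.Fi23}
    (hσ : Cfsg.IsStemExtension σ) : σ.ker = ⊥ := by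
  set y := Function.surjInv hσ.1 with hy
  have hy' : ∀ g, σ (y g) = g := Function.surjInv_eq hσ.1
  let Z : XGen → Γ := fun a => y (PresentedGroup.of a)
  let step : Γ → XGen → Γ := fun P q => P * Z q * P * (Z q)⁻¹ * P⁻¹
  let xd := Z .d
  let xc := step xd .c
  let xb := step xc .b
  let xa := step xb .a
  let xe := step xd .e
  let xf := step xe .f
  let xg := step xf .g
  let xj := step xg .j
  let xh := step xd .h
  let xi := step xh .i
  let x : XGen → Γ := fun a => match a with
    | .a => xa | .b => xb | .c => xc | .d => xd | .e => xe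
    | .f => xf | .g => xg | .j => xj | .h => xh | .i => xi
  have hz : σ (xd * xd) = 1 := by
    rw [map_mul, show σ xd = _ from hy' _]; exact of_sq _
  have hstep : ∀ p q : XGen, adj p q = true → ∀ P, σ P = PresentedGroup.of p → P * P = xd * xd →
      (σ (step P q) = PresentedGroup.of q ∧ step P q * step P q = xd * xd ∧
        step P q * P * step P q = P * step P q * P) := by
    intro p q hab P hP hPP
    have hσq : σ (step P q) = PresentedGroup.of q := by
      simp only [step, Z, map_mul, map_inv, hP, hy']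
      exact (of_adj hab).symm
    refine ⟨hσq, ?_, ?_⟩
    · show P * Z q * P * (Z q)⁻¹ * P⁻¹ * (P * Z q * P * (Z q)⁻¹ * P⁻¹) = _
      calc P * Z q * P * (Z q)⁻¹ * P⁻¹ * (P * Z q * P * (Z q)⁻¹ * P⁻¹)
          = P * Z q * (P * P) * (Z q)⁻¹ * P⁻¹ := by group
        _ = _ := by
              rw [hPP, ker_comm hσ hz]
              group
    · set Q := step P q with hQ
      set z := Q⁻¹ * Z q with hzdef
      have hz1 : σ z = 1 := by
        rw [hzdef, map_mul, map_inv, hσq, show σ (Z q) = _ from hy' _, inv_mul_cancel]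
      have hzc := ker_comm hσ hz1
      have e : Z q = Q * z := by rw [hzdef]; group
      have e2 : Q = P * Q * P * Q⁻¹ * P⁻¹ := by
        conv_lhs => rw [hQ]
        show P * Z q * P * (Z q)⁻¹ * P⁻¹ = _
        rw [e]
        calc P * (Q * z) * P * (Q * z)⁻¹ * P⁻¹ = P * Q * (z * P) * z⁻¹ * Q⁻¹ * P⁻¹ := by group
          _ = P * Q * (P * z) * z⁻¹ * Q⁻¹ * P⁻¹ := by rw [← hzc P]
          _ = _ := by group
      calc Q * P * Q = P * Q * P * Q⁻¹ * P⁻¹ * P * Q := by rw [← e2]
        _ = P * Q * P := by group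
  obtain ⟨sc, qc, bc⟩ := hstep .d .c (by decide) xd (hy' _) rfl
  obtain ⟨sb, qb, bb⟩ := hstep .c .b (by decide) xc sc qc
  obtain ⟨sa, qa, ba⟩ := hstep .b .a (by decide) xb sb qb
  obtain ⟨se, qe, be⟩ := hstep .d .e (by decide) xd (hy' _) rfl
  obtain ⟨sf, qf, bf⟩ := hstep .e .f (by decide) xe se qe
  obtain ⟨sg, qg, bg⟩ := hstep .f .g (by decide) xf sf qf
  obtain ⟨sj, qj, bj⟩ := hstep .g .j (by decide) xg sg qg
  obtain ⟨sh, qh, bh⟩ := hstep .d .h (by decide) xd (hy' _) rfl
  obtain ⟨si, qi, bi⟩ := hstep .h .i (by decide) xh sh qh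
  have hx : ∀ a, σ (x a) = PresentedGroup.of a ∧ x a * x a = xd * xd := by
    intro a
    cases a
    exacts [⟨sa, qa⟩, ⟨sb, qb⟩, ⟨sc, qc⟩, ⟨hy' _, rfl⟩, ⟨se, qe⟩, ⟨sf, qf⟩, ⟨sg, qg⟩, ⟨sj, qj⟩,
      ⟨sh, qh⟩, ⟨si, qi⟩]
  have hbraid : ∀ a b, adj a b = true → x a * x b * x a = x b * x a * x b := by
    intro a b h
    cases a <;> cases b <;> first
      | exact absurd h (by decide)
      | exact ba | exact ba.symm | exact bb | exact bb.symm | exact bc | exact bc.symm
      | exact be | exact be.symm | exact bf | exact bf.symm | exact bg | exact bg.symm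
      | exact bj | exact bj.symm | exact bh | exact bh.symm | exact bi | exact bi.symm
  have hcomm : ∀ a b, adj a b = false → x a * x b = x b * x a := by
    intro a b h
    by_cases hab : a = b
    · rw [hab]
    · refine lift_commute hσ ?_ ?_ ?_ ?_ <;> simp only [(hx a).1, (hx b).1]
      · exact isTrans_gen a
      · exact isTrans_gen b
      · exact vLet_commute h hab
      · exact of_ne hab
  have hword : ∀ w : List ℕ, σ (FreeGroup.lift x (pval ((fiD).act FreeGroup.of) w)) =
      pval vLet w := by
    intro w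
    have e : σ.comp (FreeGroup.lift x) = (PresentedGroup.mk _ : FreeGroup XGen →* Cfsg.Spor.Fi23) :=
      FreeGroup.ext_hom _ _ fun a => by simp [(hx a).1, PresentedGroup.of]
    rw [← MonoidHom.comp_apply, e, map_pval]
    rfl
  let f : UnivGroup →* Γ := PresentedGroup.toGroup (f := x) (by
    intro r hr
    change r ∈ univList at hr
    rcases List.mem_append.1 hr with hr | hr
    · obtain ⟨a, -, hr⟩ := List.mem_flatMap.1 hr
      obtain ⟨b, -, hr⟩ := List.mem_flatMap.1 hr
      simp only [List.mem_cons, List.not_mem_nil, or_false] at hr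
      rcases hr with rfl | rfl | rfl
      · simp only [map_mul, map_inv, FreeGroup.lift_apply_of]
        rw [(hx a).2, (hx b).2, mul_inv_cancel]
      · simp only [map_mul, map_inv, FreeGroup.lift_apply_of]
        rw [(hx a).2, mul_inv_eq_one, mul_inv_eq_iff_eq_mul]
        exact (ker_comm hσ hz (x b)).symm
      · split
        · next h =>
          simp only [map_mul, map_inv, FreeGroup.lift_apply_of]
          rw [hbraid a b h, mul_inv_cancel]
        · next h =>
          simp only [map_mul, map_inv, FreeGroup.lift_apply_of]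
          rw [hcomm a b (by simpa using h), mul_inv_cancel_right, mul_inv_cancel]
    · obtain ⟨w, hw, hr⟩ := List.mem_flatMap.1 hr
      obtain ⟨a, -, rfl⟩ := List.mem_map.1 hr
      simp only [map_mul, map_inv, FreeGroup.lift_apply_of]
      have hw1 : σ (FreeGroup.lift x (pval ((fiD).act FreeGroup.of) w)) = 1 := by
        rw [hword]
        have h1 : pval ((fiD).act FreeGroup.of) w ∈ coxList Cfsg.Spor.Fi23.edges
            Cfsg.Spor.Fi23.extra :=
          (by decide +kernel : ∀ w ∈ [relOne, relTwo], pval ((fiD).act FreeGroup.of) w ∈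
            coxList Cfsg.Spor.Fi23.edges Cfsg.Spor.Fi23.extra) w hw
        have h2 := CosetEnum.FiTwentyThree.mk_eq_one _ h1
        rwa [map_pval] at h2
      rw [← ker_comm hσ hw1 (x a), mul_inv_cancel_right, mul_inv_cancel])
  have hfσ : σ.comp f = barToFi.comp univToBar := by
    refine PresentedGroup.ext fun a => ?_
    rw [MonoidHom.comp_apply, MonoidHom.comp_apply,
      show univToBar (PresentedGroup.of a) = PresentedGroup.of a from PresentedGroup.toGroup.of _,
      show barToFi (PresentedGroup.of a) = PresentedGroup.of a from PresentedGroup.toGroup.of _,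
      show f (PresentedGroup.of a) = x a from PresentedGroup.toGroup.of _]
    exact (hx a).1
  have hfsurj : Function.Surjective f := by
    refine CentralExt.surjective_of_comp_surjective hσ f ?_
    rw [hfσ, ← MonoidHom.range_eq_top, eq_top_iff]
    rintro g -
    have h : g ∈ Subgroup.closure (Set.range (PresentedGroup.of : XGen → Cfsg.Spor.Fi23)) := by
      rw [PresentedGroup.closure_range_of]; trivial
    refine (Subgroup.closure_le _).2 ?_ h
    rintro _ ⟨a, rfl⟩
    refine ⟨PresentedGroup.of a, ?_⟩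
    rw [MonoidHom.comp_apply,
      show univToBar (PresentedGroup.of a) = PresentedGroup.of a from PresentedGroup.toGroup.of _]
    exact PresentedGroup.toGroup.of _
  rw [eq_bot_iff]
  intro k hk
  have hkd : k ∈ (commutator UnivGroup).map f := by
    rw [commutator_def, Subgroup.map_commutator, Subgroup.map_top_of_surjective f hfsurj,
      ← commutator_def]
    exact hσ.2.2 hk
  obtain ⟨d, hd, rfl⟩ := hkd
  have hdeg : univDeg d = 1 := Abelianization.commutator_subset_ker univDeg hd
  rw [univ_main relator_facts hdeg (by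
    rw [← MonoidHom.comp_apply, ← hfσ]; exact hk), map_one]
  exact one_mem _

theorem multiplier_trivial : Cfsg.HasCyclicSchurMultiplier Cfsg.Spor.Fi23 1 := by
  have hfin : Finite Cfsg.Spor.Fi23 :=
    Nat.finite_of_card_ne_zero (by rw [CosetEnum.FiTwentyThree.main.2]; norm_num)
  have : Subsingleton (Multiplicative (ZMod 1)) := inferInstanceAs (Subsingleton (Fin 1))
  refine ⟨⟨Cfsg.Spor.Fi23, inferInstance, hfin, MonoidHom.id _,
    ⟨fun g => ⟨g, rfl⟩, ?_, ?_⟩, ⟨?_⟩⟩, fun Γ _ _ σ hσ => ?_⟩
  · simp
  · simp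
  · have : Subsingleton (MonoidHom.id Cfsg.Spor.Fi23).ker :=
      ⟨fun a b => Subtype.ext (a.2.trans b.2.symm)⟩
    exact { toFun := fun _ => 1, invFun := fun _ => 1, left_inv := fun _ => Subsingleton.elim _ _,
            right_inv := fun _ => Subsingleton.elim _ _, map_mul' := fun _ _ => (mul_one _).symm }
  · refine ⟨1, fun k => ⟨1, ?_⟩⟩
    have h := stem_trivial hσ
    exact Subtype.ext ((Subgroup.mem_bot.1 (h ▸ k.2 : (k : Γ) ∈ (⊥ : Subgroup Γ))).symm)

end Cfsg.Agent.SporMult.FiThree
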